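import Cfsg.Agent.GL2.Syl2
import Cfsg.Agent.Char.Extend
import Cfsg.Agent.Block.Omega

/-! Counting irreducible characters of degree prime to `l`: general lemmas. -/

set_option autoImplicit false
set_option linter.unusedSectionVars false

namespace Cfsg.Agent.GL2McK
open Cfsg Cfsg.Agent.Char Cfsg.Agent.Block Finset
open scoped _root_.Classical

/-- number of irreducible characters of degree prime to `l` -/
noncomputable def cnt (l : ℕ) (H : Type*) [Group H] : ℕ :=
  Nat.card {χ : IrrCharacter H // ¬ l ∣ charDegree (χ : H → ℂ)}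

/-- number of irreducible characters of degree `d` -/
noncomputable def dg (H : Type*) [Group H] (d : ℕ) : ℕ :=
  Nat.card {χ : IrrCharacter H // charDegree (χ : H → ℂ) = d}

variable {H K : Type*} [Group H] [Group K]

theorem cnt_congr (l : ℕ) (e : H ≃* K) : cnt l H = cnt l K := by
  refine Nat.card_congr
    { toFun := fun χ => ⟨⟨fun k => χ.1.1 (e.symm k), isIrr_comp_equiv e.symm χ.1.2⟩, by
        simpa [charDegree] using χ.2⟩
      invFun := fun χ => ⟨⟨fun k => χ.1.1 (e k), isIrr_comp_equiv e χ.1.2⟩, by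
        simpa [charDegree] using χ.2⟩
      left_inv := fun χ => by ext; simp
      right_inv := fun χ => by ext; simp }

theorem sum_deg [Finite H] (D : Finset ℕ) (hD : ∀ χ : IrrCharacter H, charDegree χ.1 ∈ D) (f : ℕ → ℕ) :
    ∑ χ : IrrCharacter H, f (charDegree χ.1) = ∑ d ∈ D, dg H d * f d := by
  rw [← sum_fiberwise_of_maps_to (s := univ) (t := D) (g := fun χ : IrrCharacter H => charDegree χ.1)
    fun χ _ => hD χ]
  refine sum_congr rfl fun d _ => ?_
  rw [sum_congr rfl (g := fun _ => f d) fun χ h => by rw [(mem_filter.1 h).2], sum_const, smul_eq_mul, dg,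
    Nat.card_eq_fintype_card, Fintype.card_subtype]

theorem cnt_eq [Finite H] (l : ℕ) (D : Finset ℕ) (hD : ∀ χ : IrrCharacter H, charDegree χ.1 ∈ D) :
    cnt l H = ∑ d ∈ D, dg H d * if l ∣ d then 0 else 1 := by
  rw [← sum_deg D hD (fun d => if l ∣ d then 0 else 1), cnt, Nat.card_eq_fintype_card, Fintype.card_subtype,
    card_filter]
  exact sum_congr rfl fun χ _ => by split_ifs <;> rfl

theorem classes_eq [Finite H] (D : Finset ℕ) (hD : ∀ χ : IrrCharacter H, charDegree χ.1 ∈ D) :
    Nat.card (ConjClasses H) = ∑ d ∈ D, dg H d := by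
  have := sum_deg D hD (fun _ => 1)
  simp only [mul_one, sum_const, card_univ, smul_eq_mul] at this
  rw [← card_irr_eq_card_conjClasses, Nat.card_eq_fintype_card, this]

theorem sq_sum [Finite H] : ∑ χ : IrrCharacter H, charDegree χ.1 ^ 2 = Nat.card H := by
  have := sum_irr_one_sq (G := H)
  simp only [← Block.irr_degree_cast] at this
  exact_mod_cast this

theorem card_eq [Finite H] (D : Finset ℕ) (hD : ∀ χ : IrrCharacter H, charDegree χ.1 ∈ D) :
    Nat.card H = ∑ d ∈ D, dg H d * d ^ 2 := by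
  rw [← sum_deg D hD (· ^ 2), sq_sum]

theorem dg_eq (d : ℕ) {c : ℂ} (h : (d : ℂ) = c) :
    dg H d = Nat.card {χ : IrrCharacter H // (χ : H → ℂ) 1 = c} :=
  Nat.card_congr (Equiv.subtypeEquivRight fun χ => by
    rw [← h, ← irr_degree_cast, Nat.cast_inj])

theorem dg_one [Finite H] : dg H 1 = (commutator H).index := by
  rw [dg_eq 1 Nat.cast_one, card_irr_degree_one]

theorem cnt_of_all [Finite H] {l : ℕ} (h : ∀ χ : IrrCharacter H, ¬ l ∣ charDegree χ.1) :
    cnt l H = Nat.card (ConjClasses H) := by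
  rw [← card_irr_eq_card_conjClasses]
  exact Nat.card_congr (Equiv.subtypeUnivEquiv h)

theorem cnt_norm [Finite H] {l : ℕ} [Fact l.Prime] (P : Sylow l H) (h : ∀ x ∈ P, ∀ y ∈ P, x * y = y * x) :
    cnt l (Subgroup.normalizer ((P : Subgroup H) : Set H)) =
      Nat.card (ConjClasses (Subgroup.normalizer ((P : Subgroup H) : Set H))) := by
  refine cnt_of_all fun χ e => (P.subtype Subgroup.le_normalizer).not_dvd_index (e.trans ?_)
  have : IsMulCommutative ((P : Subgroup H).subgroupOf (Subgroup.normalizer ((P : Subgroup H) : Set H))) :=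
    ⟨⟨fun x y => Subtype.ext (Subtype.ext (h _ x.2 _ y.2))⟩⟩
  exact Extend.degree_dvd_index_of_comm ((P : Subgroup H).subgroupOf _) χ.2 (irr_degree_cast χ).symm

theorem cnt_top {l : ℕ} {N : Subgroup H} (h : N = ⊤) : cnt l H = cnt l N := by
  subst h; exact cnt_congr l Subgroup.topEquiv.symm

theorem cnt_sylow [Finite H] {l : ℕ} [Fact l.Prime] (m : ℕ) (P Q : Sylow l H) :
    cnt m (Subgroup.normalizer ((P : Subgroup H) : Set H)) =
      cnt m (Subgroup.normalizer ((Q : Subgroup H) : Set H)) := by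
  obtain ⟨g, rfl⟩ := MulAction.exists_smul_eq H P Q
  have := Subgroup.map_equiv_normalizer_eq (P : Subgroup H) (MulAut.conj g)
  exact cnt_congr m (((MulAut.conj g).subgroupMap _).trans (MulEquiv.subgroupCongr this))

/-- groups with an abelian subgroup of index two inverted by an outer element -/
theorem cnt_dic [Finite H] {A : Subgroup H} (h : A.index = 2) (hA : ∀ a ∈ A, ∀ b ∈ A, a * b = b * a)
    {w : H} (hw : w ∉ A) (hw' : ∀ a ∈ A, w * a = a⁻¹ * w) (h2 : Nat.card {a : A // a * a = 1} = 2) :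
    cnt 2 H = 4 := by
  have h1 := GL2.classes_dic h hA hw hw'
  have := A.normal_of_index_eq_two h
  have : IsMulCommutative A := ⟨⟨fun x y => Subtype.ext (hA _ x.2 _ y.2)⟩⟩
  have hD : ∀ χ : IrrCharacter H, charDegree χ.1 ∈ ({1, 2} : Finset ℕ) := fun χ => by
    have := Extend.degree_dvd_index_of_comm A χ.2 (irr_degree_cast χ).symm
    rw [h, Nat.dvd_prime Nat.prime_two] at this
    simpa using this
  have h3 := card_eq _ hD
  have h4 := classes_eq _ hD
  have h5 := A.index_mul_card
  rw [cnt_eq 2 _ hD]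
  rw [sum_pair (by norm_num)] at h3 h4 ⊢
  rw [h] at h5
  simp at h3 ⊢
  omega

theorem cnt_24 [Finite H] (h : Nat.card H = 24) (h' : (commutator H).index = 3) : cnt 2 H = 4 := by
  have hD : ∀ χ : IrrCharacter H, charDegree χ.1 ∈ ({1, 2, 3, 4} : Finset ℕ) := fun χ => by
    have h1 := single_le_sum (f := fun χ : IrrCharacter H => charDegree χ.1 ^ 2) (fun _ _ => Nat.zero_le _)
      (mem_univ χ)
    rw [sq_sum, h] at h1
    have h2 := irr_degree_ne_zero χ
    have h3 : charDegree χ.1 < 5 := by by_contra hh; nlinarith [not_lt.1 hh]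
    generalize charDegree χ.1 = d at *
    interval_cases d <;> simp at h2 ⊢
  have h3 := card_eq _ hD
  rw [cnt_eq 2 _ hD]
  rw [← dg_one] at h'
  simp at h3 ⊢
  omega

end Cfsg.Agent.GL2McK
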