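import Cfsg.Agent.GL2.McK1
import Cfsg.Agent.S2437

/-! The McKay equality for `SL₂(q)`, `q` odd. -/

set_option autoImplicit false
set_option linter.unusedSectionVars false
set_option backward.isDefEq.respectTransparency false

namespace Cfsg.Agent.GL2McK
open Cfsg Cfsg.Agent.Char Cfsg.Agent.Block Finset Cfsg.Agent.GL2
open scoped _root_.Classical

variable {F : Type*} [Field F] [Fintype F]

local notation "S" => Matrix.SpecialLinearGroup (Fin 2) F
local notation "Z(" g ")" => Subgroup.centralizer ({g} : Set (Matrix.SpecialLinearGroup (Fin 2) F))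
local notation "N(" P ")" => Subgroup.normalizer ((P : Subgroup (Matrix.SpecialLinearGroup (Fin 2) F)) :
  Set (Matrix.SpecialLinearGroup (Fin 2) F))

theorem degs {k : ℕ} (hk : Fintype.card F = 2 * k + 1) (χ : IrrCharacter S) :
    charDegree χ.1 = 1 ∨ charDegree χ.1 = k ∨ charDegree χ.1 = k + 1 ∨ charDegree χ.1 = 2 * k ∨
      charDegree χ.1 = 2 * k + 1 ∨ charDegree χ.1 = 2 * k + 2 := by
  have h := SL_deg χ.2
  rw [← irr_degree_cast, hk] at h
  generalize charDegree χ.1 = d at h ⊢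
  rcases h with (h | h | h | h) | ⟨-, h | h⟩
  · exact Or.inl (by exact_mod_cast h)
  · exact Or.inr (Or.inr (Or.inr (Or.inl (by
      apply Nat.cast_injective (R := ℂ); rw [h]; push_cast; ring))))
  · exact Or.inr (Or.inr (Or.inr (Or.inr (Or.inl (by exact_mod_cast h)))))
  · exact Or.inr (Or.inr (Or.inr (Or.inr (Or.inr (by
      apply Nat.cast_injective (R := ℂ); rw [h]; push_cast; ring)))))
  · exact Or.inr (Or.inr (Or.inl (by apply Nat.cast_injective (R := ℂ); rw [h]; push_cast; ring)))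
  · exact Or.inr (Or.inl (by apply Nat.cast_injective (R := ℂ); rw [h]; push_cast; ring))

theorem cnt_SL (l : ℕ) {k : ℕ} (hk : Fintype.card F = 2 * k + 1) (h2 : 2 ≤ k) :
    cnt l S = (if l ∣ 1 then 0 else 1) + 2 * (if l ∣ k then 0 else 1) + 2 * (if l ∣ k + 1 then 0 else 1) +
      k * (if l ∣ 2 * k then 0 else 1) + (if l ∣ 2 * k + 1 then 0 else 1) +
      (k - 1) * (if l ∣ 2 * k + 2 then 0 else 1) := by
  have ht := Classical.SL2Basic.two_ne_zero_of_odd (K := F) ⟨k, hk⟩
  have h4 : 4 ≤ Fintype.card F := by omega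
  have e1 : dg S 1 = 1 := by rw [dg_eq 1 Nat.cast_one, count_SL_one h4]
  have e2 : dg S k = 2 := by
    rw [dg_eq k (c := ((Fintype.card F : ℂ) - 1) / 2) (by rw [hk]; push_cast; ring), count_SL_hpred ht h4]
  have e3 : dg S (k + 1) = 2 := by
    rw [dg_eq (k + 1) (c := ((Fintype.card F : ℂ) + 1) / 2) (by rw [hk]; push_cast; ring),
      count_SL_hsucc ht h4]
  have e4 : dg S (2 * k) = k := by
    rw [dg_eq (2 * k) (c := (Fintype.card F : ℂ) - 1) (by rw [hk]; push_cast; ring), count_SL_pred h4,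
      nr_odd ht]; omega
  have e5 : dg S (2 * k + 1) = 1 := by
    rw [dg_eq (2 * k + 1) (c := (Fintype.card F : ℂ)) (by rw [hk]), count_SL_q]
  have e6 : dg S (2 * k + 2) = k - 1 := by
    rw [dg_eq (2 * k + 2) (c := (Fintype.card F : ℂ) + 1) (by rw [hk]; push_cast; ring), count_SL_succ,
      nr_odd ht]; omega
  rw [cnt_eq l {1, k, k + 1, 2 * k, 2 * k + 1, 2 * k + 2} fun χ => by simpa using degs hk χ,
    sum_insert (by simp; omega), sum_insert (by simp; omega), sum_insert (by simp; omega),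
    sum_insert (by simp), sum_pair (by simp), e1, e2, e3, e4, e5, e6]
  ring

theorem cnt_SL_p {l : ℕ} (hl : l.Prime) (hodd : Odd (Fintype.card F)) (h : l ∣ Fintype.card F) :
    cnt l S = Fintype.card F + 3 := by
  obtain ⟨k, hk⟩ := hodd
  have ht := Classical.SL2Basic.two_ne_zero_of_odd (K := F) ⟨k, hk⟩
  have h1 : ∀ χ : IrrCharacter S, l ∣ charDegree χ.1 ↔ χ.1 1 = (Fintype.card F : ℂ) := fun χ => by
    rw [← irr_degree_cast, Nat.cast_inj]
    refine ⟨fun e => ?_, fun e => e ▸ h⟩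
    rw [hk] at h ⊢
    have a1 : ¬ l ∣ k := fun e => hl.not_dvd_one ((Nat.dvd_add_right (e.mul_left 2)).1 h)
    have a2 : ¬ l ∣ 2 * k + 2 := fun e => hl.not_dvd_one ((Nat.dvd_add_right h).1 e)
    rcases degs hk χ with e' | e' | e' | e' | e' | e' <;> rw [e'] at e
    · exact absurd e hl.not_dvd_one
    · exact absurd e a1
    · exact absurd (e.mul_left 2) a2
    · exact absurd ((Nat.dvd_add_right e).1 h) hl.not_dvd_one
    · exact e'
    · exact absurd e a2
  rw [cnt, card_subtype_not, Nat.card_congr (Equiv.subtypeEquivRight h1), count_SL_q,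
    card_irr_eq_card_conjClasses, classes_SL, nr_odd ht]
  omega

/-- the upper unitriangular group -/
def upH : Multiplicative F →* S where
  toFun b := Classical.SL2Basic.upper b.toAdd
  map_one' := Classical.SL2Basic.upper_zero
  map_mul' a b := Classical.SL2Basic.upper_add _ _

theorem mem_up {g : S} : g ∈ (upH (F := F)).range ↔ g.1 1 0 = 0 ∧ g.1 0 0 = 1 := by
  constructor
  · rintro ⟨b, rfl⟩; simp [upH, Classical.SL2Basic.upper]
  · rintro ⟨h1, h2⟩
    have h3 := det_up_SL h1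
    rw [h2, one_mul] at h3
    refine ⟨Multiplicative.ofAdd (g.1 0 1), ?_⟩
    apply Classical.SL2Basic.sl2_ext <;> simp [upH, Classical.SL2Basic.upper, h1, h2, h3]

theorem norm_up : N((upH (F := F)).range) =
    (Cfsg.upperTriangularGL 2 F).comap Matrix.SpecialLinearGroup.toGL := by
  ext g
  rw [Subgroup.mem_comap, mem_B]
  change _ ↔ g.1 1 0 = 0
  constructor
  · intro h
    have h1 := mem_up.1 ((Subgroup.mem_normalizer_iff.1 h _).1 ⟨Multiplicative.ofAdd 1, rfl⟩)
    have h2 := h1.1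
    simp [upH, Classical.SL2Basic.upper, Matrix.mul_apply, Fin.sum_univ_two, Matrix.adjugate_fin_two] at h2
    have : g.1 1 0 * g.1 1 0 = 0 := by linear_combination -h2
    simpa using this
  · intro h
    refine Subgroup.mem_normalizer_fintype fun x hx => ?_
    obtain ⟨h1, h2⟩ := mem_up.1 hx
    have h3 := det_up_SL h
    refine mem_up.2 ?_
    simp [Matrix.mul_apply, Fin.sum_univ_two, Matrix.adjugate_fin_two, h, h1, h2, h3]

theorem case_p {l : ℕ} [hl : Fact l.Prime] (hodd : Odd (Fintype.card F)) (h : l ∣ Fintype.card F)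
    (P : Sylow l S) : cnt l S = cnt l N(P) := by
  obtain ⟨p, hp, n, -, hn⟩ := FiniteField.card' F
  have hp' : p.Prime := CharP.char_is_prime F p
  have e : l = p := (Nat.prime_dvd_prime_iff_eq hl.out hp').1 (hl.out.dvd_of_dvd_pow (hn ▸ h))
  subst e
  have hc : Nat.card (upH (F := F)).range = Fintype.card F := by
    rw [← Nat.card_congr (MonoidHom.ofInjective (f := upH (F := F))
      fun a b e => Multiplicative.toAdd.injective (Classical.SL2Basic.upper_injective (K := F) e)).toEquiv]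
    simp
  have h1 : IsPGroup l (upH (F := F)).range := IsPGroup.of_card (hc.trans hn)
  have h2 : ¬ l ∣ (upH (F := F)).range.index := fun e => by
    have h3 := (upH (F := F)).range.card_mul_index
    rw [hc, Classical.SLBasic.card_SL_two, Nat.card_eq_fintype_card (α := F)] at h3
    rw [Nat.eq_of_mul_eq_mul_left Fintype.card_pos h3] at e
    exact hl.out.not_dvd_one ((Nat.dvd_sub_iff_right (Nat.one_le_pow _ _ Fintype.card_pos)
      (dvd_pow h two_ne_zero)).1 e)
  rw [cnt_sylow l P (h1.toSylow h2), cnt_norm (h1.toSylow h2), cnt_SL_p hl.out hodd h]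
  · rw [← S2437.result hodd, ← norm_up]; rfl
  · rintro _ ⟨a, rfl⟩ _ ⟨b, rfl⟩
    rw [← map_mul, ← map_mul, mul_comm]

theorem key {l : ℕ} [hl : Fact l.Prime] (h2 : (2 : F) ≠ 0) (hl2 : l ≠ 2) (P : Sylow l S)
    (h : l ∣ Fintype.card F ^ 2 - 1) : ∃ g : S, ¬ Par g.1 ∧ l ∣ Nat.card Z(g) ∧ (∀ x ∈ P, x ∈ Z(g)) ∧
      N(P) = N(Z(g)) := by
  have hl := hl.out
  have h1 := Fintype.one_lt_card (α := F)
  have : Nontrivial P := (Subgroup.nontrivial_iff_ne_bot _).2 (P.ne_bot_of_dvd_card (by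
    rw [Classical.SLBasic.card_SL_two, Nat.card_eq_fintype_card]; exact h.mul_left _))
  have := P.2.center_nontrivial
  obtain ⟨g, hg⟩ := exists_prime_orderOf_dvd_card' (G := Subgroup.center P) l (by
    obtain ⟨n, h1, h2⟩ := (P.2.to_subgroup (Subgroup.center P)).nontrivial_iff_card.1 this
    exact h2 ▸ dvd_pow_self _ h1.ne')
  rw [← Subgroup.orderOf_coe, ← Subgroup.orderOf_coe] at hg
  have h3 : ¬ Par g.1.1.1 := fun e => by
    rcases (Nat.Prime.dvd_mul hl).1 (hg ▸ orderOf_par e) with e | e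
    · exact hl2 ((Nat.prime_dvd_prime_iff_eq hl Nat.prime_two).1 e)
    · exact hl.not_dvd_one ((Nat.dvd_sub_iff_right (Nat.one_le_pow _ _ (by omega))
        (dvd_pow e two_ne_zero)).1 h)
  have h0 := mt Sc.par h3
  have h4 : ∀ x ∈ P, x ∈ Subgroup.centralizer {g.1.1} := fun x hx =>
    Subgroup.mem_centralizer_singleton_iff.2 (congrArg Subtype.val (Subgroup.mem_center_iff.1 g.2 ⟨x, hx⟩))
  refine ⟨g.1.1, h3, hg.symm.dvd.trans (orderOf_dvd_Z _), h4, le_antisymm (fun n hn => ?_) fun n hn => ?_⟩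
  · have := eq_or_inv h2 h3 (h4 _ ((Subgroup.mem_normalizer_iff.1 hn _).1 g.1.2)) (trace_conj n _)
    rwa [mul_inv_eq_iff_eq_mul, mul_inv_eq_iff_eq_mul, ← Subgroup.mem_centralizer_singleton_iff,
      ← mem_norm_iff h2 h3] at this
  · refine Subgroup.mem_normalizer_fintype fun x hx => ?_
    rcases (mem_norm_iff h2 h3).1 hn with e | e
    · rwa [Z_comm h0 n e x (h4 x hx), mul_inv_cancel_right]
    · rw [inv_of_inv h0 e (h4 x hx), mul_inv_cancel_right]
      exact inv_mem hx

theorem case_odd {l : ℕ} [hl : Fact l.Prime] (hodd : Odd (Fintype.card F)) (hl2 : l ≠ 2) (P : Sylow l S)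
    (h : l ∣ Fintype.card F ^ 2 - 1) : cnt l S = cnt l N(P) := by
  have h2 := Classical.SL2Basic.two_ne_zero_of_odd hodd
  obtain ⟨g, e1, e2, e3, e4⟩ := key h2 hl2 P h
  rw [cnt_norm P fun x hx y hy => Z_comm (mt Sc.par e1) x (e3 x hx) y (e3 y hy), e4, classes_norm h2 e1]
  obtain ⟨k, hk⟩ := hodd
  have h1 := Fintype.one_lt_card (α := F)
  have hl := hl.out
  have c2 : ∀ {m}, l ∣ 2 * m → l ∣ m := fun e => ((Nat.Prime.dvd_mul hl).1 e).resolve_left fun e =>
    hl2 ((Nat.prime_dvd_prime_iff_eq hl Nat.prime_two).1 e)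
  have c1 := hl.not_dvd_one
  rcases card_Z e1 with e | e <;> rw [e, hk] at e2 <;> rw [e, hk]
  · have a1 : l ∣ k := c2 e2
    have a2 : ¬ l ∣ k + 1 := fun e => c1 ((Nat.dvd_add_right a1).1 e)
    have a3 : ¬ l ∣ 2 * k + 1 := fun e => c1 ((Nat.dvd_add_right (a1.mul_left 2)).1 e)
    have a4 : ¬ l ∣ 2 * k + 2 := fun e => a2 (c2 e)
    have a5 : 2 ≤ k := hl.two_le.trans (Nat.le_of_dvd (by omega) a1)
    rw [cnt_SL l hk a5, if_neg c1, if_pos a1, if_neg a2, if_pos (a1.mul_left 2), if_neg a3, if_neg a4]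
    omega
  · have a1 : l ∣ k + 1 := c2 e2
    have a2 : ¬ l ∣ k := fun e => c1 ((Nat.dvd_add_right e).1 a1)
    have a3 : ¬ l ∣ 2 * k + 1 := fun e => c1 ((Nat.dvd_add_right e).1 e2)
    have a4 : ¬ l ∣ 2 * k := fun e => a2 (c2 e)
    have a5 : 2 ≤ k := by
      have := Nat.le_of_dvd (by omega) a1
      have := hl.two_le
      omega
    rw [cnt_SL l hk a5, if_neg c1, if_pos a1, if_neg a2, if_pos (show l ∣ 2 * k + 2 from e2), if_neg a3,
      if_neg a4]
    omega

theorem cnt_two {P : Sylow 2 S} {g w : S} (h : Syl2 P g w) : cnt 2 N(P) = 4 := by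
  have hq := Nat.odd_iff.1 (odd_of_two_ne h.two)
  rcases (by omega : (Fintype.card F % 8 = 1 ∨ Fintype.card F % 8 = 7) ∨
    (Fintype.card F % 8 = 3 ∨ Fintype.card F % 8 = 5)) with h8 | h8
  · refine (cnt_congr 2 (MulEquiv.subgroupCongr (h.norm_eq h8))).trans ?_
    have h3 : (-1 : S) ∈ Z(g) := Subgroup.center_le_centralizer _ neg_one_central
    refine cnt_dic h.index (fun x hx y hy => Subtype.ext (Z_comm h.nsc _ hx _ hy)) (w := ⟨w, h.mem⟩) h.notMem
      (fun x hx => Subtype.ext (inv_of_inv h.nsc h.inv hx)) ?_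
    exact Nat.card_eq_two_iff.2 ⟨⟨1, one_mul _⟩, ⟨⟨⟨-1, neg_mem P⟩, h3⟩,
      Subtype.ext (Subtype.ext (by simp))⟩, fun e => Classical.SL2Basic.neg_one_ne_one h.two
        (congrArg (·.1.1.1) e).symm, Set.eq_univ_iff_forall.2 fun x =>
          (Classical.SL2Basic.eq_of_mul_self_eq_one h.two (congrArg (·.1.1) x.2)).imp
            (fun e => Subtype.ext (Subtype.ext (Subtype.ext e)))
            fun e => Subtype.ext (Subtype.ext (Subtype.ext e))⟩
  · have h1 : Nat.card N(P) = 24 := h.card_norm_eq h8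
    refine cnt_24 h1 ?_
    obtain ⟨o, ho, h2, h3⟩ := h.exists_om h8
    replace ho : o ∈ N(P) := ho
    set M := N(P)
    have hle : (P : Subgroup S) ≤ M := Subgroup.le_normalizer
    have h40 : Nat.card (P : Subgroup S) = 8 := (h.card_eq h8).2
    have h4 : Nat.card ((P : Subgroup S).subgroupOf M) = 8 := by
      rw [Nat.card_congr (Subgroup.subgroupOfEquivOfLe hle).toEquiv, h40]
    have h5 : ((P : Subgroup S).subgroupOf M).index = 3 := by
      have := ((P : Subgroup S).subgroupOf M).index_mul_card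
      rw [h4, h1] at this
      omega
    rw [← h5]
    congr 1
    have : Fact (Nat.Prime 3) := ⟨Nat.prime_three⟩
    have hc : IsCyclic (M ⧸ (P : Subgroup S).subgroupOf M) := isCyclic_of_prime_card (p := 3) h5
    refine le_antisymm ?_ ?_
    · refine Subgroup.commutator_le.2 fun a _ b _ => ?_
      rw [← QuotientGroup.eq_one_iff, ← QuotientGroup.mk'_apply, map_commutatorElement,
        commutatorElement_eq_one_iff_mul_comm]
      exact hc.commutative.is_comm.comm _ _
    · set o' : M := ⟨o, ho⟩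
      set g' : M := ⟨g, Subgroup.le_normalizer h.gmem⟩
      set w' : M := ⟨w, Subgroup.le_normalizer h.mem⟩
      have c : ∀ a b : M, a * b * a⁻¹ * b⁻¹ ∈ commutator M := fun a b =>
        Subgroup.commutator_mem_commutator (Subgroup.mem_top a) (Subgroup.mem_top b)
      have hg : g' ∈ commutator M := by
        convert c o' w' using 1
        exact Subtype.ext (show g = o * w * o⁻¹ * w⁻¹ by rw [h3]; group)
      have hw : w' ∈ commutator M := by
        convert mul_mem (c o' g') hg using 1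
        exact Subtype.ext (show w = o * g * o⁻¹ * g⁻¹ * g by rw [h2]; group)
      have h7 : ∀ x : M, x.1 ∈ P → x.1 ∈ Z(g) → x ∈ commutator M := fun x hx hx' => by
        have : Subgroup.zpowers (⟨g, h.gmem⟩ : P) = (Z(g)).subgroupOf P :=
          Subgroup.eq_of_le_of_card_ge (Subgroup.zpowers_le.2 (mem_Z.2 rfl)) (by
            refine (h.card_eq h8).1.le.trans ?_
            rw [Nat.card_zpowers, Subgroup.orderOf_mk, orderOf_four h.two h.sq])
        obtain ⟨k, hk⟩ : (⟨x, hx⟩ : P) ∈ Subgroup.zpowers (⟨g, h.gmem⟩ : P) := this ▸ hx'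
        rw [← show g' ^ k = x from Subtype.ext (congrArg Subtype.val hk :)]
        exact zpow_mem hg k
      intro x hx
      rcases h.le x hx with e | e
      · exact h7 x hx e
      · exact (Subgroup.mul_mem_cancel_right _ hw).1 (h7 (x * w') (mul_mem hx h.mem) (h.mul_mem_Z e))

theorem case_two (hodd : Odd (Fintype.card F)) (P : Sylow 2 S) : cnt 2 S = cnt 2 N(P) := by
  have h2 := Classical.SL2Basic.two_ne_zero_of_odd hodd
  obtain ⟨g, w, h⟩ := exists_syl2 h2 P
  obtain ⟨k, hk⟩ := hodd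
  have h1 := Fintype.one_lt_card (α := F)
  by_cases h3 : 2 ≤ k
  · rw [cnt_two h, cnt_SL 2 hk h3]
    split_ifs <;> omega
  · refine cnt_top (Subgroup.eq_top_of_card_eq _ ?_)
    erw [h.card_norm_eq (by omega)]
    rw [Classical.SLBasic.card_SL_two, Nat.card_eq_fintype_card (α := F), show Fintype.card F = 3 by omega]
    norm_num

theorem mckay (hodd : Odd (Fintype.card F)) (l : ℕ) [hl : Fact l.Prime] (P : Sylow l S) :
    cnt l S = cnt l N(P) := by
  by_cases h2 : l = 2
  · subst h2; exact case_two hodd P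
  by_cases h3 : l ∣ Fintype.card F
  · exact case_p hodd h3 P
  by_cases h4 : l ∣ Fintype.card F ^ 2 - 1
  · exact case_odd hodd h2 P h4
  have h5 : (P : Subgroup S) = ⊥ := by
    obtain ⟨n, hn⟩ := IsPGroup.iff_card.1 P.2
    have h6 := (P : Subgroup S).card_subgroup_dvd_card
    rw [Classical.SLBasic.card_SL_two, Nat.card_eq_fintype_card (α := F), hn] at h6
    rw [← Subgroup.card_eq_one, hn]
    rcases n with _ | n
    · rfl
    · exact absurd ((Nat.Prime.dvd_mul hl.out).1 ((dvd_pow_self l n.succ_ne_zero).trans h6)) (not_or.2 ⟨h3, h4⟩)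
  refine cnt_top ?_
  rw [h5]
  exact Subgroup.normalizer_eq_top ⊥

end Cfsg.Agent.GL2McK
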